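import Mathlib
import Cfsg.Agent.Lib.Helper94.OMG.Defs
import Cfsg.Agent.Lib.Helper39.OElm.ExistME
import Cfsg.Agent.Lib.Helper25.OElp.SplitE
import Cfsg.Agent.Lib.Helper1.OElp.SumE
import Cfsg.Agent.Lib.Helper44.OElp.Inst
import Cfsg.Agent.Lib.Helper34.OTSP.DimI
import Cfsg.Agent.Lib.Helper53.OElm.MinusQE

/-!
# Project OMG (S2415), package [MIXA]

An isometry `x` of the minus form of odd prime order `r ∣ q² + 1` whose fixed space is
nondegenerate of plus type and of dimension `2k - 2`, and whose moved space is irreducible.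
-/

set_option autoImplicit false
open scoped Matrix MatrixGroups

namespace Cfsg.Agent.Lib.Helper80.OMG

open Cfsg.Agent.Lib.Helper94.OMG Cfsg.Agent.Lib.Helper23.OHyp Cfsg.Agent.Lib.Helper64.OParM
open Cfsg.Agent.Lib.Helper44.OElp

universe u

/-- `q² + 1` has an odd prime divisor. -/
theorem exists_odd_prime_dvd80 (q : ℕ) (hq : 2 ≤ q) : ∃ r : ℕ, r.Prime ∧ r ≠ 2 ∧ r ∣ q ^ 2 + 1 := by
  rcases Nat.even_or_odd q with he | ho
  · obtain ⟨r, hr, hrd⟩ := Nat.exists_prime_and_dvd (show q ^ 2 + 1 ≠ 1 by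
      have h0 : q ^ 2 ≠ 0 := by positivity
      omega)
    refine ⟨r, hr, ?_, hrd⟩
    rintro rfl
    have h1 : Even (q ^ 2 + 1) := (even_iff_two_dvd).mpr hrd
    rw [Nat.even_add_one, Nat.even_pow] at h1
    exact h1 ⟨he, by norm_num⟩
  · obtain ⟨t, ht⟩ := ho
    have ht1 : 1 ≤ t := by omega
    obtain ⟨r, hr, hrd⟩ := Nat.exists_prime_and_dvd
      (show 2 * t ^ 2 + 2 * t + 1 ≠ 1 by omega)
    refine ⟨r, hr, ?_, ?_⟩
    · rintro rfl
      have h1 : (2 * t ^ 2 + 2 * t + 1) % 2 = 1 := by omega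
      omega
    · have h2 : q ^ 2 + 1 = 2 * (2 * t ^ 2 + 2 * t + 1) := by
        rw [ht]
        ring
      rw [h2]
      exact hrd.mul_left 2

/-- `ord_r(q) = 4` for an odd prime `r ∣ q² + 1`. -/
theorem ordI_eq_four80 {q r : ℕ} (hr : r.Prime) (hr2 : r ≠ 2) (hrd : r ∣ q ^ 2 + 1) :
    ordI q r = 4 := by
  have : Fact r.Prime := ⟨hr⟩
  have : Fact (Nat.Prime 2) := ⟨Nat.prime_two⟩
  unfold ordI
  have h1 : ((q : ℕ) : ZMod r) ^ 2 = -1 := by
    have h0 : ((q ^ 2 + 1 : ℕ) : ZMod r) = 0 := (ZMod.natCast_eq_zero_iff _ _).mpr hrd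
    push_cast at h0
    exact eq_neg_of_add_eq_zero_left h0
  have hne : (-1 : ZMod r) ≠ 1 := by
    intro h
    have h2 : ((2 : ℕ) : ZMod r) = 0 := by
      push_cast
      linear_combination -h
    have h3 : r ∣ 2 := (ZMod.natCast_eq_zero_iff _ _).mp h2
    exact hr2 ((Nat.prime_dvd_prime_iff_eq hr Nat.prime_two).mp h3)
  have h := orderOf_eq_prime_pow (x := ((q : ℕ) : ZMod r)) (p := 2) (n := 1)
    (by
      rw [pow_one, h1]
      exact hne)
    (by
      have e : ((q : ℕ) : ZMod r) ^ 2 ^ (1 + 1) = (((q : ℕ) : ZMod r) ^ 2) ^ 2 := by ring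
      rw [e, h1]
      ring)
  rw [h]
  norm_num

/-- [MIXA] -/
theorem pkgMixA : Cfsg.Agent.Lib.Helper94.OMG.PkgMixA.{u} := by
  intro F _ _ k a b hab hk
  classical
  have hq2 : 2 ≤ Fintype.card F := Fintype.one_lt_card
  obtain ⟨r, hr, hr2, hrd⟩ := exists_odd_prime_dvd80 (Fintype.card F) hq2
  have hrq : ¬ r ∣ Fintype.card F := by
    intro h
    have h1 : r ∣ Fintype.card F ^ 2 := dvd_pow h (by norm_num)
    have h2 : r ∣ 1 := (Nat.dvd_add_right h1).mp hrd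
    exact hr.one_lt.ne' (Nat.dvd_one.mp h2)
  have hi : ordI (Fintype.card F) r = 4 := ordI_eq_four80 hr hr2 hrd
  have hie : Even (ordI (Fintype.card F) r) := by
    rw [hi]
    decide
  obtain ⟨x, hxmem, hxord, hxfix⟩ := Cfsg.Agent.Lib.Helper39.OElm.pkgExistME F k r a b hab hr hr2
    hrq hie 1 le_rfl (by rw [hi]; omega) (by intro h; rw [hi] at h; omega)
  rw [hi] at hxfix
  obtain ⟨hnd, hnotplus⟩ := Cfsg.Agent.Lib.Helper53.OElm.pkgMinusQE F k a b hab
  have hxr : x ^ r = 1 := by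
    rw [← hxord]
    exact pow_orderOf_eq_one x
  have hxrM : (x : Matrix (MI k) (MI k) F) ^ r = 1 := by
    have h1 := congrArg (fun y : GL (MI k) F => (y : Matrix (MI k) (MI k) F)) hxr
    simpa using h1
  have hisom : ∀ v, Cfsg.quadFormMinus k F a b ((x : Matrix (MI k) (MI k) F) *ᵥ v) =
      Cfsg.quadFormMinus k F a b v := fun v => hxmem v v
  have hrF : (r : F) ≠ 0 := Cfsg.Agent.Lib.Helper34.OTSP.cast_r_ne_zero hr hrq
  have hStdE : StdE (Cfsg.quadFormMinus k F a b) r (x : Matrix (MI k) (MI k) F) :=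
    ⟨hnd, hr, hr2, hrq, hrF, hxrM, hisom⟩
  have hStdQ : Cfsg.Agent.Lib.Helper99.OTSP.StdQ (Cfsg.quadFormMinus k F a b) r
      (x : Matrix (MI k) (MI k) F) := ⟨hnd, hr, hr2, hrq, hxrM, hisom⟩
  obtain ⟨hNdC, hNdN, hPerp, hCompl, hInvN, -⟩ :=
    Cfsg.Agent.Lib.Helper25.OElp.pkgSplitE F (MI k) (Cfsg.quadFormMinus k F a b) r
      (x : Matrix (MI k) (MI k) F) hStdE
  have hfinC : Module.finrank F (fixSp (x : Matrix (MI k) (MI k) F)) = 2 * k - 2 := by omega
  have hfinN : Module.finrank F (movSp (x : Matrix (MI k) (MI k) F)) = 4 := by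
    have h1 := Submodule.finrank_add_eq_of_isCompl hCompl
    rw [Module.finrank_fintype_fun_eq_card] at h1
    have h2 : Fintype.card (MI k) = 2 * k + 2 := by
      simp [MI]
      ring
    omega
  -- the moved space is not of plus type, hence the fixed space is
  have hPN : ¬ Plus (Cfsg.quadFormMinus k F a b) (movSp (x : Matrix (MI k) (MI k) F)) := by
    obtain ⟨-, h1⟩ := Cfsg.Agent.Lib.Helper44.OElp.pkgDivE F (MI k) (Cfsg.quadFormMinus k F a b) r
      (x : Matrix (MI k) (MI k) F) hStdE (movSp (x : Matrix (MI k) (MI k) F)) le_rfl hInvN hNdN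
    rw [h1, hi, hfinN]
    decide
  have hPC : Plus (Cfsg.quadFormMinus k F a b) (fixSp (x : Matrix (MI k) (MI k) F)) := by
    by_contra hC
    obtain ⟨-, -, h1⟩ := Cfsg.Agent.Lib.Helper1.OElp.pkgSumE F (MI k)
      (Cfsg.quadFormMinus k F a b) hnd _ _ hNdC hNdN hPerp
    have h2 := (h1 (by rw [hfinC]; exact ⟨k - 1, by omega⟩) (by rw [hfinN]; decide)).mpr
      ⟨fun h => absurd h hC, fun h => absurd h hPN⟩
    rw [hCompl.sup_eq_top] at h2
    exact hnotplus h2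
  refine ⟨r, ⟨x, hxmem⟩, hr, hr2, hrd, Subtype.ext hxr, hfinC, hNdC, hPC, hPerp, hCompl, ?_⟩
  intro v hv hv0 w hw
  have hpow : ∀ j : ℕ, matM ((⟨x, hxmem⟩ : ↥(GM k F a b)) ^ j) =
      (x : Matrix (MI k) (MI k) F) ^ j := by
    intro j
    simp [matM]
  have hInvN' : ∀ n ∈ movSp (x : Matrix (MI k) (MI k) F),
      (x : Matrix (MI k) (MI k) F) *ᵥ n ∈ movSp (x : Matrix (MI k) (MI k) F) := by
    intro n hn
    have h1 : Matrix.toLin' (x : Matrix (MI k) (MI k) F) n ∈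
        (movSp (x : Matrix (MI k) (MI k) F)).map (Matrix.toLin' (x : Matrix (MI k) (MI k) F)) :=
      Submodule.mem_map_of_mem hn
    have h2 := hInvN h1
    rwa [Matrix.toLin'_apply] at h2
  have hSN : Submodule.span F (Set.range fun j : ℕ =>
      matM ((⟨x, hxmem⟩ : ↥(GM k F a b)) ^ j) *ᵥ v) ≤ movSp (x : Matrix (MI k) (MI k) F) := by
    rw [Submodule.span_le]
    rintro _ ⟨j, rfl⟩
    show matM ((⟨x, hxmem⟩ : ↥(GM k F a b)) ^ j) *ᵥ v ∈ movSp (x : Matrix (MI k) (MI k) F)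
    rw [hpow]
    induction j with
    | zero => simpa using hv
    | succ j ih =>
      rw [pow_succ', ← Matrix.mulVec_mulVec]
      exact hInvN' _ ih
  have hInvS : Cfsg.Agent.Lib.Helper23.OHyp.Inv (x : Matrix (MI k) (MI k) F) (Submodule.span F (Set.range fun j : ℕ =>
      matM ((⟨x, hxmem⟩ : ↥(GM k F a b)) ^ j) *ᵥ v)) := by
    unfold Cfsg.Agent.Lib.Helper23.OHyp.Inv
    rw [Submodule.map_span, Submodule.span_le]
    rintro _ ⟨_, ⟨j, rfl⟩, rfl⟩
    apply Submodule.subset_span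
    refine ⟨j + 1, ?_⟩
    show matM ((⟨x, hxmem⟩ : ↥(GM k F a b)) ^ (j + 1)) *ᵥ v =
      Matrix.toLin' (x : Matrix (MI k) (MI k) F) (matM ((⟨x, hxmem⟩ : ↥(GM k F a b)) ^ j) *ᵥ v)
    rw [hpow, hpow, Matrix.toLin'_apply, pow_succ', ← Matrix.mulVec_mulVec]
  have hdvd := Cfsg.Agent.Lib.Helper34.OTSP.pkgDimI F (MI k) (Cfsg.quadFormMinus k F a b) r
    (x : Matrix (MI k) (MI k) F) hStdQ _ hSN hInvS
  rw [hi] at hdvd
  have hle := Submodule.finrank_mono hSN
  rw [hfinN] at hle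
  have hne : Module.finrank F (Submodule.span F (Set.range fun j : ℕ =>
      matM ((⟨x, hxmem⟩ : ↥(GM k F a b)) ^ j) *ᵥ v)) ≠ 0 := by
    intro h0
    rw [Submodule.finrank_eq_zero] at h0
    have hvS : v ∈ Submodule.span F (Set.range fun j : ℕ =>
        matM ((⟨x, hxmem⟩ : ↥(GM k F a b)) ^ j) *ᵥ v) := by
      apply Submodule.subset_span
      refine ⟨0, ?_⟩
      show matM ((⟨x, hxmem⟩ : ↥(GM k F a b)) ^ 0) *ᵥ v = v
      rw [hpow]
      simp
    rw [h0, Submodule.mem_bot] at hvS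
    exact hv0 hvS
  have heq : Module.finrank F (Submodule.span F (Set.range fun j : ℕ =>
      matM ((⟨x, hxmem⟩ : ↥(GM k F a b)) ^ j) *ᵥ v)) =
      Module.finrank F (movSp (x : Matrix (MI k) (MI k) F)) := by
    rw [hfinN]
    obtain ⟨c, hc⟩ := hdvd
    omega
  have hS := Submodule.eq_of_le_of_finrank_eq hSN heq
  rw [hS]
  exact hw

end Cfsg.Agent.Lib.Helper80.OMG
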